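import Cfsg.Agent.H544.OT.Root

/-!
# S2539, END_l : the root lemma R7

The elements of `M/T` have order less than `3 ^ 8`: they act on the `F₃`-space spanned by the roots, of dimension at
most 8, and the algebra generated by one endomorphism has dimension at most 8.
-/

set_option autoImplicit false

namespace Cfsg.Agent.H544.OT

open Subgroup Cfsg.Agent.H712.OT Cfsg.Agent.H214.OT Polynomial

universe u v w

/-! ## Orders of linear maps -/

section Lin

variable {F : Type u} {V : Type v} [Field F] [Fintype F] [AddCommGroup V] [Module F V] [FiniteDimensional F V]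

omit [Fintype F] in
/-- the powers of an endomorphism are combinations of the first ones -/
theorem pow_mem_image (f : Module.End F V) {n : ℕ} (hn : Module.finrank F V ≤ n) (j : ℕ) :
    ∃ c : Fin n → F, ∑ i, c i • f ^ (i : ℕ) = f ^ j := by
  rcases Nat.eq_zero_or_pos n with h0 | hpos
  · subst h0
    have hsub : Subsingleton V := Module.finrank_zero_iff.mp (Nat.le_zero.mp hn)
    refine ⟨fun _ => 0, ?_⟩
    apply LinearMap.ext
    intro x
    exact Subsingleton.elim _ _
  · set p : F[X] := X ^ j %ₘ f.charpoly with hp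
    have hm : f.charpoly.Monic := LinearMap.charpoly_monic f
    have h1 : f ^ j = aeval f p := LinearMap.pow_eq_aeval_mod_charpoly f j
    have hlt : p.degree < (n : ℕ) := by
      have h2 : p.degree < f.charpoly.degree := degree_modByMonic_lt _ hm
      have h3 : f.charpoly.degree ≤ (n : ℕ) := by
        rw [degree_eq_natDegree hm.ne_zero, LinearMap.charpoly_natDegree]
        exact_mod_cast hn
      exact lt_of_lt_of_le h2 h3
    refine ⟨fun i => p.coeff i, ?_⟩
    rw [h1, aeval_eq_sum_range' (n := n) ?_, Finset.sum_range]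
    by_cases hp0 : p = 0
    · rw [hp0, natDegree_zero]; exact hpos
    · exact (natDegree_lt_iff_degree_lt hp0).mpr hlt

/-- an injective endomorphism of a space of dimension at most `n` over the field with `q` elements has order less
than `q ^ n` -/
theorem exists_pow_eq_one (f : Module.End F V) (hf : Function.Injective f) {n : ℕ} (hn1 : 1 ≤ n)
    (hn : Module.finrank F V ≤ n) : ∃ j : ℕ, 1 ≤ j ∧ j < Fintype.card F ^ n ∧ f ^ j = 1 := by
  classical
  have hq : 2 ≤ Fintype.card F := Fintype.one_lt_card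
  have hqn : 2 ≤ Fintype.card F ^ n := le_trans hq (Nat.le_self_pow (by omega) _)
  by_cases hV : Subsingleton V
  · exact ⟨1, le_refl _, by omega, LinearMap.ext fun x => Subsingleton.elim _ _⟩
  have hV' : Nontrivial V := not_subsingleton_iff_nontrivial.mp hV
  have hinj : ∀ i : ℕ, Function.Injective (f ^ i) := by
    intro i
    rw [Module.End.coe_pow]
    exact hf.iterate i
  let S : Finset (Module.End F V) := Finset.univ.image (fun c : Fin n → F => ∑ i, c i • f ^ (i : ℕ))
  have hScard : S.card ≤ Fintype.card F ^ n := by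
    refine le_trans Finset.card_image_le ?_
    rw [Finset.card_univ, Fintype.card_fun, Fintype.card_fin]
  have h0 : (0 : Module.End F V) ∈ S := by
    apply Finset.mem_image.mpr
    exact ⟨0, Finset.mem_univ _, by simp⟩
  have hmem : ∀ j : ℕ, f ^ j ∈ S.erase 0 := by
    intro j
    apply Finset.mem_erase.mpr
    refine ⟨?_, ?_⟩
    · intro h
      obtain ⟨x, hx⟩ := exists_ne (0 : V)
      apply hx
      apply hinj j
      rw [h]
      rfl
    · obtain ⟨c, hc⟩ := pow_mem_image f hn j
      exact Finset.mem_image.mpr ⟨c, Finset.mem_univ _, hc⟩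
  have hlt : (S.erase 0).card < (Finset.range (Fintype.card F ^ n)).card := by
    rw [Finset.card_erase_of_mem h0, Finset.card_range]
    omega
  obtain ⟨i, hi, j, hj, hij, he⟩ := Finset.exists_ne_map_eq_of_card_lt_of_maps_to hlt (f := fun j => f ^ j)
    (fun j _ => hmem j)
  have key : ∀ i j : ℕ, i < j → j < Fintype.card F ^ n → f ^ i = f ^ j →
      ∃ j : ℕ, 1 ≤ j ∧ j < Fintype.card F ^ n ∧ f ^ j = 1 := by
    intro i j hlt hj he
    refine ⟨j - i, by omega, by omega, ?_⟩
    apply LinearMap.ext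
    intro x
    apply hinj i
    have h1 : f ^ i * f ^ (j - i) = f ^ i := by
      rw [← pow_add, show i + (j - i) = j by omega, he]
    have h2 := congrArg (fun g : Module.End F V => g x) h1
    simpa using h2
  rw [Finset.mem_range] at hi hj
  rcases lt_or_gt_of_ne hij with h | h
  · exact key i j h hj he
  · exact key j i h hi he.symm

end Lin

variable {K : Type u} [Field K] [Fintype K] {Y : Type v} [Group Y] {T M : Subgroup Y}
  {Φ : Type w} {Ψ : Set Φ} {P : Φ → Φ → ℤ}

/-- an element acting trivially modulo 3 is in `T` -/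
theorem mem_of_cong3 (X : Ctx K Y T M Φ Ψ P) (hA : A3 X) {m : M}
    (hcg : ∀ a ∈ Ψ, ∀ b ∈ Ψ, (3 : ℤ) ∣ P b (X.act m a) - P b a) : (m : Y) ∈ T := by
  refine (X.act_T m).mpr fun a ha => ?_
  have h1 := hcg a ha a ha
  rw [X.self] at h1
  have h2 := abs_two X a (X.act m a)
  have h6 : P a (X.act m a) = 2 ∨ P a (X.act m a) = -1 := by omega
  rcases h6 with h6 | h6
  · exact (X.two _ _ h6).symm
  exfalso
  set b := X.act m a with hbdef
  have hb : b ∈ Ψ := X.act_mem _ _ ha
  obtain ⟨c, hcΨ, hcx, -⟩ := X.add a ha b hb h6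
  let S : Set Φ := {a, b, c, X.neg a, X.neg b, X.neg c}
  have hSsub : S ⊆ Ψ := by
    rintro y (rfl | rfl | rfl | rfl | rfl | rfl)
    · exact ha
    · exact hb
    · exact hcΨ
    · exact X.neg_mem _ ha
    · exact X.neg_mem _ hb
    · exact X.neg_mem _ hcΨ
  have hba : P b a = -1 := by rw [X.symm]; exact h6
  have hca : P c a = 1 := by rw [hcx, X.self, hba]; rfl
  have hcb : P c b = 1 := by rw [hcx, X.self, h6]; rfl
  have hac : P a c = 1 := by rw [X.symm]; exact hca
  have hbc : P b c = 1 := by rw [X.symm]; exact hcb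
  have hPn : ∀ x y, P x (X.neg y) = - P x y := by
    intro x y
    rw [X.symm, X.P_neg, X.symm]
  -- no root of `S` is orthogonal to another one
  have hSn : ∀ x ∈ S, ∀ y ∈ S, P x y ≠ 0 := by
    rintro x (rfl | rfl | rfl | rfl | rfl | rfl) y (rfl | rfl | rfl | rfl | rfl | rfl) <;>
      simp only [X.P_neg, hPn, X.self, h6, hba, hca, hcb, hac, hbc] <;> decide
  have hSeq : S = Ψ := by
    by_contra hne
    obtain ⟨x, hx, y, hy, hyS, hxy⟩ := X.irred S hSsub ⟨a, Or.inl rfl⟩ hne
    simp only [S, Set.mem_insert_iff, Set.mem_singleton_iff, not_or] at hyS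
    obtain ⟨n1, n2, n3, n4, n5, n6⟩ := hyS
    have s1 := small X n1 n4
    have s2 := small X n2 n5
    have s3 := small X n3 n6
    have e1 := hcg a ha y hy
    rw [← hbdef, X.symm y b, X.symm y a] at e1
    have e2 := hcx y
    have e0 : P a y = 0 ∧ P b y = 0 ∧ P c y = 0 := by omega
    rcases hx with rfl | rfl | rfl | rfl | rfl | rfl
    · exact hxy e0.1
    · exact hxy e0.2.1
    · exact hxy e0.2.2
    · exact hxy (by rw [X.P_neg, e0.1]; rfl)
    · exact hxy (by rw [X.P_neg, e0.2.1]; rfl)
    · exact hxy (by rw [X.P_neg, e0.2.2]; rfl)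
  obtain ⟨a', ha', b', hb', c', hc', -, -, h0⟩ := hA
  rw [← hSeq] at ha' hc'
  exact hSn a' ha' c' hc' h0

/-- the rows of the Cartan matrix modulo 3 -/
def row (P : Φ → Φ → ℤ) (a : Φ) : Φ → ZMod 3 := fun b => ((P a b : ℤ) : ZMod 3)

theorem row_act (X : Ctx K Y T M Φ Ψ P) (m : M) (a : Φ) :
    LinearMap.funLeft (ZMod 3) (ZMod 3) (X.act m⁻¹) (row P a) = row P (X.act m a) := by
  funext b
  show ((P a (X.act m⁻¹ b) : ℤ) : ZMod 3) = ((P (X.act m a) b : ℤ) : ZMod 3)
  rw [X.symm a, act_inv_P X m a b, X.symm b]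

/-- **R7**: the orders of the elements of `M/T` are at most `3 ^ 8 - 1` -/
theorem order_le [Finite Φ] (X : Ctx K Y T M Φ Ψ P) (hA : A3 X) (m : M) :
    ∃ j : ℕ, 1 ≤ j ∧ j < 3 ^ 8 ∧ (m : Y) ^ j ∈ T := by
  classical
  have : Fact (Nat.Prime 3) := ⟨Nat.prime_three⟩
  obtain ⟨s, hs⟩ := X.basis
  let W : Submodule (ZMod 3) (Φ → ZMod 3) := Submodule.span (ZMod 3) (Set.range (row P))
  let W' : Submodule (ZMod 3) (Φ → ZMod 3) := Submodule.span (ZMod 3) (Set.range fun i : Fin 8 => row P (s i))
  have hWW : W ≤ W' := by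
    refine Submodule.span_le.mpr ?_
    rintro _ ⟨a, rfl⟩
    obtain ⟨c, hc⟩ := hs a
    have h1 : row P a = ∑ i, ((c i : ℤ) : ZMod 3) • row P (s i) := by
      funext x
      rw [Finset.sum_apply]
      show ((P a x : ℤ) : ZMod 3) = _
      rw [hc x]
      push_cast
      rfl
    rw [h1]
    exact Submodule.sum_mem _ fun i _ => Submodule.smul_mem _ _ (Submodule.subset_span ⟨i, rfl⟩)
  have hrank : Module.finrank (ZMod 3) W ≤ 8 := by
    refine le_trans (Submodule.finrank_mono hWW) ?_
    have h2 := finrank_range_le_card (R := ZMod 3) (fun i : Fin 8 => row P (s i))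
    simpa [Set.finrank] using h2
  let g : Module.End (ZMod 3) (Φ → ZMod 3) := LinearMap.funLeft (ZMod 3) (ZMod 3) (X.act m⁻¹)
  have hg : Function.Injective g := LinearMap.funLeft_injective_of_surjective _ _ _ (X.act m⁻¹).surjective
  have hgW : ∀ x ∈ W, g x ∈ W := by
    intro x hx
    have h1 : W ≤ W.comap g := by
      refine Submodule.span_le.mpr ?_
      rintro _ ⟨a, rfl⟩
      show g (row P a) ∈ W
      rw [show g (row P a) = row P (X.act m a) from row_act X m a]
      exact Submodule.subset_span ⟨_, rfl⟩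
    exact h1 hx
  let f : Module.End (ZMod 3) W := g.restrict hgW
  have hf : Function.Injective f := by
    intro x y hxy
    apply Subtype.ext
    apply hg
    exact congrArg Subtype.val hxy
  obtain ⟨j, hj1, hj2, hj⟩ := exists_pow_eq_one f hf (by norm_num : 1 ≤ 8) hrank
  rw [ZMod.card] at hj2
  refine ⟨j, hj1, hj2, ?_⟩
  have hmj : ((m ^ j : M) : Y) = (m : Y) ^ j := by simp
  rw [← hmj]
  apply mem_of_cong3 X hA
  intro a ha b hb
  have h3 : ∀ (i : ℕ) (a : Φ), ((f ^ i) ⟨row P a, Submodule.subset_span ⟨a, rfl⟩⟩ : W).1 = row P (X.act (m ^ i) a) := by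
    intro i
    induction i with
    | zero => intro a; simp
    | succ i ih =>
      intro a
      rw [pow_succ, Module.End.mul_apply]
      have h4 : f ⟨row P a, Submodule.subset_span ⟨a, rfl⟩⟩ =
          ⟨row P (X.act m a), Submodule.subset_span ⟨_, rfl⟩⟩ := Subtype.ext (row_act X m a)
      rw [h4, ih, pow_succ, map_mul, Equiv.Perm.mul_apply]
  have h5 := h3 j a
  rw [hj] at h5
  have h6 := congrFun h5 b
  have h7 : ((P a b : ℤ) : ZMod 3) = ((P (X.act (m ^ j) a) b : ℤ) : ZMod 3) := h6
  have h8 := (ZMod.intCast_eq_intCast_iff_dvd_sub _ _ 3).mp h7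
  rw [X.symm b, X.symm b]
  exact_mod_cast h8

end Cfsg.Agent.H544.OT
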